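import Mathlib
import Cfsg.Prelude.Def_Transfer
import Cfsg.Prelude.Def_PLocal
import Cfsg.Agent.Lib.Helper11.QuadStable
import Cfsg.Agent.Lib.Helper11.Quadratic

/-!
# S3753 (Bender, primitive pairs of characteristic `p`): definitions and package statements

`Qof p M` is `O_p(M)` inside the ambient group, `ncl N U` the subgroup generated by the
`N`-conjugates of `U`.  `Hyp p M N` collects the (symmetric) hypotheses for odd `p`,
`Inv p M N U` is the invariant of the closure argument.  The packages are the `Pkg*` props.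
-/

set_option autoImplicit false
open scoped commutatorElement

namespace Cfsg.Agent.Lib.Helper2.PP

universe u

variable {G : Type u} [Group G]

/-- `O_p(M)` as a subgroup of the ambient group. -/
def Qof (p : ℕ) (M : Subgroup G) : Subgroup G := (Cfsg.pCore p ↥M).map M.subtype

/-- The conjugate `y U y⁻¹`. -/
def cj (y : G) (U : Subgroup G) : Subgroup G := U.map (MulAut.conj y).toMonoidHom

/-- The subgroup generated by the `N`-conjugates of `U`. -/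
def ncl (N U : Subgroup G) : Subgroup G := ⨆ y : N, cj (y : G) U

theorem mem_cj_iff (y : G) (U : Subgroup G) (g : G) : g ∈ cj y U ↔ y⁻¹ * g * y ∈ U := by
  unfold cj
  constructor
  · rintro ⟨u, hu, rfl⟩
    simpa [MulAut.conj_apply, mul_assoc] using hu
  · intro h
    exact ⟨y⁻¹ * g * y, h, by simp [MulAut.conj_apply, mul_assoc]⟩

theorem conj_mem_cj (y : G) (U : Subgroup G) {u : G} (hu : u ∈ U) : y * u * y⁻¹ ∈ cj y U :=
  ⟨u, hu, by simp [MulAut.conj_apply]⟩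

theorem cj_le_ncl (N U : Subgroup G) {y : G} (hy : y ∈ N) : cj y U ≤ ncl N U :=
  le_iSup (fun y : N => cj (y : G) U) ⟨y, hy⟩

theorem le_ncl (N U : Subgroup G) : U ≤ ncl N U := by
  intro u hu
  have := cj_le_ncl N U (one_mem N) (conj_mem_cj 1 U hu)
  simpa using this

theorem Qof_le (p : ℕ) (M : Subgroup G) : Qof p M ≤ M := by
  rintro _ ⟨x, -, rfl⟩
  exact x.2

theorem Qof_isPGroup (p : ℕ) (M : Subgroup G) : IsPGroup p (Qof p M) :=
  (Cfsg.Agent.Lib.Helper11.pCore_isPGroup' p ↥M).map M.subtype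

/-- `O_p(M)` is normalized by `M`. -/
theorem Qof_conj_mem {p : ℕ} {M : Subgroup G} {m g : G} (hm : m ∈ M) (hg : g ∈ Qof p M) :
    m * g * m⁻¹ ∈ Qof p M := by
  obtain ⟨x, hx, rfl⟩ := hg
  have hn : (Cfsg.pCore p ↥M).Normal := Subgroup.sSup_normal _ (fun _ h => h.1)
  exact ⟨⟨m, hm⟩ * x * ⟨m, hm⟩⁻¹, hn.conj_mem x hx ⟨m, hm⟩, by simp⟩

/-- A `p`-subgroup of `M` normalized by `M` lies in `O_p(M)`. -/
theorem le_Qof {p : ℕ} {M R : Subgroup G} (hRM : R ≤ M)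
    (hn : ∀ m ∈ M, ∀ r ∈ R, m * r * m⁻¹ ∈ R) (hR : IsPGroup p R) : R ≤ Qof p M := by
  intro r hr
  have hN : (R.subgroupOf M).Normal := ⟨fun x hx m => by
    rw [Subgroup.mem_subgroupOf] at hx ⊢
    simpa using hn m m.2 x hx⟩
  have hp : IsPGroup p (R.subgroupOf M) := hR.comap_subtype
  have hle : R.subgroupOf M ≤ Cfsg.pCore p ↥M :=
    le_sSup (show R.subgroupOf M ∈ {N : Subgroup ↥M | N.Normal ∧ IsPGroup p N} from ⟨hN, hp⟩)
  exact ⟨⟨r, hRM hr⟩, hle (Subgroup.mem_subgroupOf.mpr hr), rfl⟩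

/-- Membership in a conjugate, the other way round. -/
theorem mem_cj_of {y : G} {U : Subgroup G} {g : G} (h : y⁻¹ * g * y ∈ U) : g ∈ cj y U :=
  (mem_cj_iff y U g).mpr h

/-- `ncl N U` is normalized by `N`. -/
theorem ncl_conj_mem {N U : Subgroup G} {n g : G} (hn : n ∈ N) (hg : g ∈ ncl N U) :
    n * g * n⁻¹ ∈ ncl N U := by
  have key : ncl N U ≤ (ncl N U).comap (MulAut.conj n).toMonoidHom := by
    refine iSup_le fun y => ?_
    intro g hg
    rw [Subgroup.mem_comap]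
    have h1 : n * g * n⁻¹ ∈ cj (n * (y : G)) U := by
      rw [mem_cj_iff] at hg ⊢
      have : (n * (y : G))⁻¹ * (n * g * n⁻¹) * (n * (y : G)) = (y : G)⁻¹ * g * (y : G) := by
        group
      rw [this]; exact hg
    exact cj_le_ncl N U (N.mul_mem hn y.2) h1
  have := key hg
  simpa [Subgroup.mem_comap, MulAut.conj_apply] using this

/-- A subgroup containing all `N`-conjugates of `U` contains `ncl N U`. -/
theorem ncl_le {N U K : Subgroup G} (h : ∀ y ∈ N, cj y U ≤ K) : ncl N U ≤ K :=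
  iSup_le fun y => h y y.2

/-- The hypotheses of S3753 for an odd prime, in symmetric form, after negating the conclusion. -/
structure Hyp (p : ℕ) (M N : Subgroup G) : Prop where
  cM : Subgroup.centralizer (Cfsg.pCore p ↥M : Set ↥M) ≤ Cfsg.pCore p ↥M
  cN : Subgroup.centralizer (Cfsg.pCore p ↥N : Set ↥N) ≤ Cfsg.pCore p ↥N
  qM : Qof p M ≤ N
  qN : Qof p N ≤ M
  pM : ∀ A : Subgroup G, A ≠ ⊥ → A ≤ M ⊓ N → M ≤ Subgroup.normalizer (A : Set G) →
    N ⊓ Subgroup.normalizer (A : Set G) ≤ M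
  pN : ∀ A : Subgroup G, A ≠ ⊥ → A ≤ M ⊓ N → N ≤ Subgroup.normalizer (A : Set G) →
    M ⊓ Subgroup.normalizer (A : Set G) ≤ N
  tM : Cfsg.Agent.Lib.Helper11.TwoAb M
  tN : Cfsg.Agent.Lib.Helper11.TwoAb N

theorem Hyp.symm {p : ℕ} {M N : Subgroup G} (h : Hyp p M N) : Hyp p N M :=
  ⟨h.cN, h.cM, h.qN, h.qM,
    fun A hA hle hn => h.pN A hA (by rwa [inf_comm]) hn,
    fun A hA hle hn => h.pM A hA (by rwa [inf_comm]) hn, h.tN, h.tM⟩

/-- The invariant of the closure argument: `U` is a nontrivial elementary abelian subgroup of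
`O_p(M) ⊓ O_p(N)`, normal in `M`, on which no subgroup of `O_p(N)` acts quadratically and
nontrivially. -/
structure Inv (p : ℕ) (M N U : Subgroup G) : Prop where
  ne : U ≠ ⊥
  nM : M ≤ Subgroup.normalizer (U : Set G)
  leM : U ≤ Qof p M
  leN : U ≤ Qof p N
  ea : Cfsg.IsElementaryAbelian p U
  quad : ∀ X : Subgroup G, X ≤ Qof p N → ⁅⁅U, X⁆, X⁆ = ⊥ → ⁅U, X⁆ = ⊥

/-- **[T]** pure group theory: a `p`-subgroup `X` of `O`, where `C ≤ O` are normal in `M` with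
`O / C` a `p`-group, which centralizes `C` modulo `O_p(M)`, lies in `O_p(M)`. -/
def PkgT : Prop :=
  ∀ {G : Type u} [Group G] [Finite G] {p : ℕ} [Fact p.Prime] (M C O X : Subgroup G),
    C ≤ O → O ≤ M → (∀ m ∈ M, ∀ c ∈ C, m * c * m⁻¹ ∈ C) → (∀ m ∈ M, ∀ d ∈ O, m * d * m⁻¹ ∈ O) →
    (∀ d ∈ O, ∃ k : ℕ, d ^ p ^ k ∈ C) → X ≤ O → IsPGroup p X → ⁅X, C⁆ ≤ Qof p M → X ≤ Qof p M

/-- **[F1]** `p`-stability on `O_p(M)`: a subgroup of `M` acting quadratically on `O_p(M)`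
lies in `O_p(M)` (`p` odd, commutative `2`-subgroups, `C_M(O_p(M)) ≤ O_p(M)`). -/
def PkgF1 : Prop :=
  ∀ {G : Type u} [Group G] [Finite G] {p : ℕ} [Fact p.Prime], p ≠ 2 → ∀ (M X : Subgroup G),
    Cfsg.Agent.Lib.Helper11.TwoAb M →
    Subgroup.centralizer (Cfsg.pCore p ↥M : Set ↥M) ≤ Cfsg.pCore p ↥M →
    X ≤ M → ⁅⁅Qof p M, X⁆, X⁆ = ⊥ → X ≤ Qof p M

/-- **[BASE]** a minimal normal subgroup of `M` inside `O_p(M)` satisfies the invariant. -/
def PkgBase : Prop :=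
  ∀ {G : Type u} [Group G] [Finite G] {p : ℕ} [Fact p.Prime], p ≠ 2 → ∀ (M N : Subgroup G),
    Hyp p M N → Qof p M ≠ ⊥ → ∃ V : Subgroup G, Inv p M N V

/-- **[STEP]** the invariant passes to the normal closure in the other group. -/
def PkgStep : Prop :=
  ∀ {G : Type u} [Group G] [Finite G] {p : ℕ} [Fact p.Prime], p ≠ 2 → ∀ (M N U : Subgroup G),
    Hyp p M N → Inv p M N U → Inv p N M (ncl N U)

/-- **[P2]** the case `p = 2`. -/
def PkgTwo : Prop :=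
  ∀ {G : Type u} [Group G] [Finite G] (M₁ M₂ : Subgroup G), M₁ ≠ M₂ →
    (∀ A : Subgroup G, A ≠ ⊥ → A ≤ M₁ ⊓ M₂ →
      (M₁ ≤ Subgroup.normalizer (A : Set G) → M₂ ⊓ Subgroup.normalizer (A : Set G) = M₁ ⊓ M₂) ∧
      (M₂ ≤ Subgroup.normalizer (A : Set G) → M₁ ⊓ Subgroup.normalizer (A : Set G) = M₁ ⊓ M₂)) →
    Subgroup.centralizer (Cfsg.pCore 2 ↥M₁ : Set ↥M₁) ≤ Cfsg.pCore 2 ↥M₁ →
    Subgroup.centralizer (Cfsg.pCore 2 ↥M₂ : Set ↥M₂) ≤ Cfsg.pCore 2 ↥M₂ →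
    (Cfsg.pCore 2 ↥M₁).map M₁.subtype ⊔ (Cfsg.pCore 2 ↥M₂).map M₂.subtype ≤ M₁ ⊓ M₂ →
    (∀ S : Sylow 2 ↥M₁, IsMulCommutative (S : Subgroup ↥M₁)) →
    (∀ S : Sylow 2 ↥M₂, IsMulCommutative (S : Subgroup ↥M₂)) → False

end Cfsg.Agent.Lib.Helper2.PP
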