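import Mathlib
import Cfsg.Agent.Lib.Helper2.PP.Defs

/-!
# S3753, package STEP: the invariant passes to the normal closure in the other group
-/

set_option autoImplicit false
open scoped commutatorElement

namespace Cfsg.Agent.Lib.Helper2.PP

universe u

variable {G : Type u} [Group G]

/-- A subgroup normalized elementwise lies in the normalizer. -/
theorem le_normalizer_of_conj {N K : Subgroup G} (h : ∀ n ∈ N, ∀ g ∈ K, n * g * n⁻¹ ∈ K) :
    N ≤ Subgroup.normalizer (K : Set G) := by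
  intro n hn
  rw [Subgroup.mem_normalizer_iff]
  intro g
  constructor
  · exact h n hn g
  · intro hg
    have := h n⁻¹ (N.inv_mem hn) _ hg
    simpa [mul_assoc] using this

theorem conj_mem_of_le_normalizer {N K : Subgroup G} (h : N ≤ Subgroup.normalizer (K : Set G))
    {n g : G} (hn : n ∈ N) (hg : g ∈ K) : n * g * n⁻¹ ∈ K :=
  (Subgroup.mem_normalizer_iff.mp (h hn) g).mp hg

theorem cj_commutator (y : G) (A B : Subgroup G) : cj y ⁅A, B⁆ = ⁅cj y A, cj y B⁆ :=
  Subgroup.map_commutator A B _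

theorem cj_inv_cj (y : G) (U : Subgroup G) : cj y⁻¹ (cj y U) = U := by
  ext g
  rw [mem_cj_iff, mem_cj_iff]
  simp [mul_assoc]

theorem cj_cj_inv (y : G) (U : Subgroup G) : cj y (cj y⁻¹ U) = U := by
  ext g
  rw [mem_cj_iff, mem_cj_iff]
  simp [mul_assoc]

theorem cj_bot (y : G) : cj y (⊥ : Subgroup G) = ⊥ := Subgroup.map_bot _

theorem ea_comm {p : ℕ} {U : Subgroup G} (h : Cfsg.IsElementaryAbelian p U) {a b : G}
    (ha : a ∈ U) (hb : b ∈ U) : a * b = b * a := by
  have := h.1
  exact congrArg Subtype.val (mul_comm' (⟨a, ha⟩ : U) ⟨b, hb⟩)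

/-- `O_p` of a subgroup normalized by `N` lies in `O_p(N)`. -/
theorem Qof_le_Qof_of_normal {p : ℕ} {C N : Subgroup G} (hCN : C ≤ N)
    (hinv : ∀ n ∈ N, ∀ c ∈ C, n * c * n⁻¹ ∈ C) : Qof p C ≤ Qof p N := by
  refine le_Qof ((Qof_le p C).trans hCN) ?_ (Qof_isPGroup p C)
  intro n hn r hr
  have h1 : cj n (Qof p C) ≤ Qof p C := by
    refine le_Qof ?_ ?_ (show IsPGroup p (cj n (Qof p C)) from (Qof_isPGroup p C).map _)
    · intro g hg
      rw [mem_cj_iff] at hg
      have := hinv n hn _ (Qof_le p C hg)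
      simpa [mul_assoc] using this
    · intro c hc g hg
      rw [mem_cj_iff] at hg ⊢
      have hc' : n⁻¹ * c * n ∈ C := by
        have := hinv n⁻¹ (N.inv_mem hn) c hc
        simpa using this
      have := Qof_conj_mem hc' hg
      have e : n⁻¹ * (c * g * c⁻¹) * n = n⁻¹ * c * n * (n⁻¹ * g * n) * (n⁻¹ * c * n)⁻¹ := by
        group
      rw [e]; exact this
  exact h1 (conj_mem_cj n _ hr)

/-- **(1)** `U` commutes with each of its `N`-conjugates. -/
theorem comm_cj {p : ℕ} {M N U : Subgroup G} (h : Hyp p M N) (i : Inv p M N U) {y : G}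
    (hy : y ∈ N) : U ≤ Subgroup.centralizer (cj y U : Set G) := by
  have hXQ : cj y U ≤ Qof p N := by
    intro g hg
    rw [mem_cj_iff] at hg
    have := Qof_conj_mem hy (i.leN hg)
    simpa [mul_assoc] using this
  have hquad : ⁅⁅U, cj y U⁆, cj y U⁆ = ⊥ := by
    have h1 : ⁅U, cj y U⁆ ≤ cj y U := by
      rw [Subgroup.commutator_le]
      intro u hu x hx
      have hux : u * x * u⁻¹ ∈ cj y U := by
        rw [mem_cj_iff] at hx ⊢
        have hu' : y⁻¹ * u * y ∈ M := by
          have := Qof_conj_mem (N.inv_mem hy) (i.leN hu)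
          exact h.qN (by simpa using this)
        have := conj_mem_of_le_normalizer i.nM hu' hx
        have e : y⁻¹ * (u * x * u⁻¹) * y = y⁻¹ * u * y * (y⁻¹ * x * y) * (y⁻¹ * u * y)⁻¹ := by
          group
        rw [e]; exact this
      have : ⁅u, x⁆ = u * x * u⁻¹ * x⁻¹ := rfl
      rw [this]
      exact (cj y U).mul_mem hux ((cj y U).inv_mem hx)
    have h2 : ⁅cj y U, cj y U⁆ = ⊥ := by
      rw [Subgroup.commutator_eq_bot_iff_le_centralizer]
      intro a ha
      rw [Subgroup.mem_centralizer_iff]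
      intro b hb
      rw [SetLike.mem_coe, mem_cj_iff] at hb
      rw [mem_cj_iff] at ha
      have := ea_comm i.ea hb ha
      have e1 : b * a = y * ((y⁻¹ * b * y) * (y⁻¹ * a * y)) * y⁻¹ := by group
      have e2 : a * b = y * ((y⁻¹ * a * y) * (y⁻¹ * b * y)) * y⁻¹ := by group
      rw [e1, e2, this]
    rw [eq_bot_iff, ← h2]
    exact Subgroup.commutator_mono h1 le_rfl
  have := i.quad (cj y U) hXQ hquad
  exact (Subgroup.commutator_eq_bot_iff_le_centralizer).mp this

/-- The `N`-conjugates of `U` commute pairwise. -/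
theorem comm_cj_cj {p : ℕ} {M N U : Subgroup G} (h : Hyp p M N) (i : Inv p M N U) {y z : G}
    (hy : y ∈ N) (hz : z ∈ N) : cj y U ≤ Subgroup.centralizer (cj z U : Set G) := by
  intro g hg
  rw [Subgroup.mem_centralizer_iff]
  intro k hk
  rw [SetLike.mem_coe] at hk
  have hk' : y⁻¹ * k * y ∈ cj (y⁻¹ * z) U := by
    rw [mem_cj_iff] at hk ⊢
    have e : (y⁻¹ * z)⁻¹ * (y⁻¹ * k * y) * (y⁻¹ * z) = z⁻¹ * k * z := by group
    rw [e]; exact hk
  rw [mem_cj_iff] at hg
  have h1 := comm_cj h i (N.mul_mem (N.inv_mem hy) hz) hg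
  rw [Subgroup.mem_centralizer_iff] at h1
  have h2 := h1 _ hk'
  have e1 : k * g = y * ((y⁻¹ * k * y) * (y⁻¹ * g * y)) * y⁻¹ := by group
  have e2 : g * k = y * ((y⁻¹ * g * y) * (y⁻¹ * k * y)) * y⁻¹ := by group
  rw [e1, e2, h2]

theorem ncl_comm {p : ℕ} {M N U : Subgroup G} (h : Hyp p M N) (i : Inv p M N U) :
    ncl N U ≤ Subgroup.centralizer (ncl N U : Set G) := by
  refine ncl_le fun z hz => ?_
  rw [Subgroup.le_centralizer_iff]
  exact ncl_le fun y hy => comm_cj_cj h i hy hz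

theorem ncl_ea {p : ℕ} {M N U : Subgroup G} (h : Hyp p M N) (i : Inv p M N U) :
    Cfsg.IsElementaryAbelian p (ncl N U) := by
  have hc := ncl_comm h i
  have hcomm : ∀ a ∈ ncl N U, ∀ b ∈ ncl N U, a * b = b * a := fun a ha b hb =>
    ((Subgroup.mem_centralizer_iff.mp (hc hb)) a ha)
  refine ⟨⟨⟨fun a b => Subtype.ext (hcomm a a.2 b b.2)⟩⟩, ?_⟩
  let E : Subgroup G :=
    { carrier := {a | a ∈ ncl N U ∧ a ^ p = 1}
      mul_mem' := fun {a b} ha hb => ⟨(ncl N U).mul_mem ha.1 hb.1, by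
        have hab : Commute a b := hcomm a ha.1 b hb.1
        rw [hab.mul_pow, ha.2, hb.2, one_mul]⟩
      one_mem' := ⟨(ncl N U).one_mem, one_pow p⟩
      inv_mem' := fun {a} ha => ⟨(ncl N U).inv_mem ha.1, by rw [inv_pow, ha.2, inv_one]⟩ }
  have hE : ncl N U ≤ E := by
    refine ncl_le fun y hy => ?_
    intro g hg
    refine ⟨cj_le_ncl N U hy hg, ?_⟩
    rw [mem_cj_iff] at hg
    have h1 := i.ea.2 _ hg
    have e : (y⁻¹ * g * y) ^ p = y⁻¹ * g ^ p * y := by
      have h0 := conj_pow (a := y⁻¹) (b := g) (i := p)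
      simpa using h0
    rw [e] at h1
    have e2 : g ^ p = y * (y⁻¹ * g ^ p * y) * y⁻¹ := by group
    rw [e2, h1]; group
  exact fun a ha => (hE ha).2

/-- **[STEP]** -/
theorem pkgStep (hT : PkgT.{u}) (hF1 : PkgF1.{u}) : PkgStep.{u} := by
  unfold PkgStep
  intro G _ _ p _ hp M N U h i
  have hinv : ∀ n ∈ N, ∀ g ∈ ncl N U, n * g * n⁻¹ ∈ ncl N U :=
    fun n hn g hg => ncl_conj_mem hn hg
  have hnorm : N ≤ Subgroup.normalizer (ncl N U : Set G) := le_normalizer_of_conj hinv
  have hleQN : ncl N U ≤ Qof p N := by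
    refine ncl_le fun y hy => ?_
    intro g hg
    rw [mem_cj_iff] at hg
    have := Qof_conj_mem hy (i.leN hg)
    simpa [mul_assoc] using this
  have hea := ncl_ea h i
  have hcomm := ncl_comm h i
  have hcc : ⁅ncl N U, ncl N U⁆ = ⊥ := Subgroup.commutator_eq_bot_iff_le_centralizer.mpr hcomm
  have hleQM : ncl N U ≤ Qof p M := by
    apply hF1 hp M (ncl N U) h.tM h.cM (hleQN.trans h.qN)
    have h1 : ⁅Qof p M, ncl N U⁆ ≤ ncl N U := by
      rw [Subgroup.commutator_le]
      intro q hq u hu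
      have : ⁅q, u⁆ = q * u * q⁻¹ * u⁻¹ := rfl
      rw [this]
      exact (ncl N U).mul_mem (hinv q (h.qM hq) u hu) ((ncl N U).inv_mem hu)
    rw [eq_bot_iff, ← hcc]
    exact Subgroup.commutator_mono h1 le_rfl
  refine ⟨?_, hnorm, hleQN, hleQM, hea, ?_⟩
  · intro hbot
    apply i.ne
    rw [eq_bot_iff, ← hbot]
    exact le_ncl N U
  · intro X hX hquad
    -- (2a) `X ≤ O_p(N)`
    have hXN : X ≤ Qof p N := by
      intro a ha
      have haQ : a ∈ Qof p M := hX ha
      have hza : Subgroup.zpowers a ≤ X := Subgroup.zpowers_le.mpr ha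
      have hq : ⁅⁅ncl N U, Subgroup.zpowers a⁆, Subgroup.zpowers a⁆ = ⊥ := by
        rw [eq_bot_iff, ← hquad]
        exact Subgroup.commutator_mono (Subgroup.commutator_mono le_rfl hza) hza
      obtain ⟨D, hDN, hDn, hCD, hDp, haD⟩ :=
        Cfsg.Agent.Lib.Helper11.quad_stable_sub hp (ncl N U) N hea hnorm h.tN a (h.qM haQ) hq
      have hCinv : ∀ m ∈ N, ∀ c ∈ N ⊓ Subgroup.centralizer (ncl N U : Set G),
          m * c * m⁻¹ ∈ N ⊓ Subgroup.centralizer (ncl N U : Set G) := by
        intro m hm c hc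
        have hc1 := (Subgroup.mem_inf.mp hc).1
        have hc2 := (Subgroup.mem_inf.mp hc).2
        refine Subgroup.mem_inf.mpr ⟨N.mul_mem (N.mul_mem hm hc1) (N.inv_mem hm), ?_⟩
        rw [Subgroup.mem_centralizer_iff]
        intro u hu
        have hu' : m⁻¹ * u * m ∈ ncl N U := by
          have := hinv m⁻¹ (N.inv_mem hm) u hu
          simpa using this
        have h5 := (Subgroup.mem_centralizer_iff.mp hc2) _ hu'
        have e1 : u * (m * c * m⁻¹) = m * ((m⁻¹ * u * m) * c) * m⁻¹ := by group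
        have e2 : m * c * m⁻¹ * u = m * (c * (m⁻¹ * u * m)) * m⁻¹ := by group
        rw [e1, e2, h5]
      have hCM : N ⊓ Subgroup.centralizer (ncl N U : Set G) ≤ M := by
        intro c hc
        apply h.pM U i.ne (le_inf (i.leM.trans (Qof_le p M)) (i.leN.trans (Qof_le p N))) i.nM
        refine Subgroup.mem_inf.mpr ⟨(Subgroup.mem_inf.mp hc).1, ?_⟩
        have h6 : c ∈ Subgroup.centralizer (U : Set G) :=
          Subgroup.centralizer_le (le_ncl N U) (Subgroup.mem_inf.mp hc).2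
        exact Subgroup.centralizer_le_normalizer (U : Set G) h6
      have hzQ : Subgroup.zpowers a ≤ Qof p M := Subgroup.zpowers_le.mpr haQ
      have hcomC : ⁅Subgroup.zpowers a, N ⊓ Subgroup.centralizer (ncl N U : Set G)⁆ ≤
          Qof p N := by
        have hR1 : ⁅Subgroup.zpowers a, N ⊓ Subgroup.centralizer (ncl N U : Set G)⁆ ≤
            Qof p M ⊓ (N ⊓ Subgroup.centralizer (ncl N U : Set G)) := by
          rw [Subgroup.commutator_le]
          intro g hg c hc
          have hgQ : g ∈ Qof p M := hzQ hg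
          refine Subgroup.mem_inf.mpr ⟨?_, ?_⟩
          · have e : ⁅g, c⁆ = g * (c * g⁻¹ * c⁻¹) := by
              simp [commutatorElement_def, mul_assoc]
            rw [e]
            exact (Qof p M).mul_mem hgQ (Qof_conj_mem (hCM hc) ((Qof p M).inv_mem hgQ))
          · have e : ⁅g, c⁆ = g * c * g⁻¹ * c⁻¹ := rfl
            rw [e]
            exact Subgroup.mul_mem _ (hCinv g (h.qM hgQ) c hc) (Subgroup.inv_mem _ hc)
        have hR2 : Qof p M ⊓ (N ⊓ Subgroup.centralizer (ncl N U : Set G)) ≤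
            Qof p (N ⊓ Subgroup.centralizer (ncl N U : Set G)) := by
          refine le_Qof inf_le_right ?_ ((Qof_isPGroup p M).to_le inf_le_left)
          intro c hc r hr
          exact Subgroup.mem_inf.mpr ⟨Qof_conj_mem (hCM hc) (Subgroup.mem_inf.mp hr).1,
            Subgroup.mul_mem _ (Subgroup.mul_mem _ hc (Subgroup.mem_inf.mp hr).2)
              (Subgroup.inv_mem _ hc)⟩
        have hR3 : Qof p (N ⊓ Subgroup.centralizer (ncl N U : Set G)) ≤ Qof p N :=
          Qof_le_Qof_of_normal inf_le_left hCinv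
        exact hR1.trans (hR2.trans hR3)
      have hres := hT N (N ⊓ Subgroup.centralizer (ncl N U : Set G)) D (Subgroup.zpowers a)
        hCD hDN hCinv hDn
        (fun d hd => by
          obtain ⟨k, hk⟩ := hDp d hd
          exact ⟨k, Subgroup.mem_inf.mpr ⟨N.pow_mem (hDN hd) _, hk⟩⟩)
        (Subgroup.zpowers_le.mpr haD) ((Qof_isPGroup p M).to_le hzQ) hcomC
      exact hres (Subgroup.mem_zpowers a)
    -- (2b) `X` centralizes every conjugate
    rw [Subgroup.commutator_eq_bot_iff_le_centralizer]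
    refine ncl_le fun y hy => ?_
    rw [← Subgroup.commutator_eq_bot_iff_le_centralizer]
    have hX' : cj y⁻¹ X ≤ Qof p N := by
      intro g hg
      rw [mem_cj_iff] at hg
      have := Qof_conj_mem (N.inv_mem hy) (hXN hg)
      simpa [mul_assoc] using this
    have hq' : ⁅⁅U, cj y⁻¹ X⁆, cj y⁻¹ X⁆ = ⊥ := by
      have h1 : ⁅⁅cj y U, X⁆, X⁆ = ⊥ := by
        rw [eq_bot_iff, ← hquad]
        exact Subgroup.commutator_mono (Subgroup.commutator_mono (cj_le_ncl N U hy) le_rfl) le_rfl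
      have h2 := congrArg (cj y⁻¹) h1
      rw [cj_commutator, cj_commutator, cj_inv_cj, cj_bot] at h2
      exact h2
    have h3 := i.quad _ hX' hq'
    have h4 := congrArg (cj y) h3
    rw [cj_commutator, cj_cj_inv, cj_bot] at h4
    exact h4

end Cfsg.Agent.Lib.Helper2.PP
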